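import Cfsg.Agent.Lib.Fischer.U6Plane.Setup
import Cfsg.Agent.Lib.Fischer.TypeTwentyTwoInvolutions
import Cfsg.Agent.Lib.Fischer.TypeTwentyTwoWidth
import Cfsg.Agent.Lib.Fischer.Width

/-!
In a group of type M(22) the members of a Sylow 2-subgroup generate its Thompson subgroup.
-/

set_option autoImplicit false
set_option linter.unusedSectionVars false

namespace CfsgLib.Fischer.U6Plane

open CfsgLib.SchurMult.PSUSixTwo

theorem commute_of_isPGroup {G : Type*} [Group G] {D : Set G} (hD : Cfsg.IsThreeTranspositionSet D) {P : Subgroup G}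
    (hP : IsPGroup 2 P) {a b : G} (ha : a ∈ D) (hb : b ∈ D) (haP : a ∈ P) (hbP : b ∈ P) : Commute a b := by
  have ha2 : a * a = 1 := by rw [← pow_two, ← hD.1 a ha]; exact pow_orderOf_eq_one a
  have hb2 : b * b = 1 := by rw [← pow_two, ← hD.1 b hb]; exact pow_orderOf_eq_one b
  rcases hD.2 a ha b hb with h | h
  · have h' : a * b * (a * b) = 1 := by rw [← pow_two]; exact h
    calc a * b = (a * b)⁻¹ := (inv_eq_of_mul_eq_one_left h').symm
      _ = b * a := by rw [mul_inv_rev, inv_eq_of_mul_eq_one_left ha2, inv_eq_of_mul_eq_one_left hb2]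
  · obtain ⟨k, hk⟩ := hP ⟨a * b, mul_mem haP hbP⟩
    have hk' : (a * b) ^ 2 ^ k = 1 := congrArg Subtype.val hk
    have h1 := Nat.dvd_gcd (orderOf_dvd_of_pow_eq_one h) (orderOf_dvd_of_pow_eq_one hk')
    rw [Nat.Coprime.gcd_eq_one (Nat.Coprime.pow_right k (by norm_num)), Nat.dvd_one, orderOf_eq_one_iff] at h1
    have hab : a = b := by
      rw [← mul_one a, ← hb2, ← mul_assoc, h1, one_mul]
    exact hab ▸ Commute.refl a

variable {G : Type*} [Group G] [Finite G] {d : G} {F : Type} [Field F] [Fintype F]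

namespace Cover

variable (c : Cover ↥(Subgroup.centralizer ({d} : Set G)) F) (hz : (c.z : G) = d)
include hz

/-- A large elementary abelian subgroup of a 2-group over the plane centralizing a conjugate of `d` in it. -/
theorem eq_img_of_commute {Q E : Subgroup G} (hQ : IsPGroup 2 Q) (himg : c.img ≤ Q) (hEQ : E ≤ Q)
    (hE : Cfsg.IsElementaryAbelian 2 E) (hcard : 1024 ≤ Nat.card E) {e : G} (he : e ∈ c.img) (hce : IsConj d e)
    (hcomm : ∀ x ∈ E, Commute x e) : E = c.img := by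
  haveI := c.finite
  haveI : Fact (Nat.Prime 2) := ⟨Nat.prime_two⟩
  obtain ⟨n, hn, hnd⟩ := c.exists_normalizer hz he hce
  set φ := (MulAut.conj n⁻¹).toMonoidHom with hφ
  have hφinj : Function.Injective φ := (MulAut.conj n⁻¹).injective
  have himgφ : c.img.map φ = c.img := by
    refine Subgroup.eq_of_le_of_card_ge ?_ (by rw [Subgroup.card_map_of_injective hφinj])
    rintro _ ⟨a, ha, rfl⟩
    exact (Subgroup.mem_normalizer_iff.1 (inv_mem hn) a).1 ha
  have hE' : E.map φ ≤ Subgroup.centralizer ({d} : Set G) := by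
    rintro _ ⟨x, hx, rfl⟩
    refine Subgroup.mem_centralizer_singleton_iff.2 ?_
    show n⁻¹ * x * n⁻¹⁻¹ * d = d * (n⁻¹ * x * n⁻¹⁻¹)
    rw [inv_inv, show n⁻¹ * x * n * d = n⁻¹ * (x * (n * d * n⁻¹)) * n by group, hnd, (hcomm x hx).eq, ← hnd]
    group
  have hQC : IsPGroup 2 ((Q.map φ).subgroupOf (Subgroup.centralizer ({d} : Set G))) :=
    (hQ.map φ).comap_of_injective _ (Subgroup.subtype_injective _)
  obtain ⟨S, hS⟩ := hQC.exists_le_sylow
  obtain ⟨g, -, huniq⟩ := c.exists_thompson S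
  have hA : c.A ≤ (S : Subgroup ↥(Subgroup.centralizer ({d} : Set G))) := fun a ha => hS (by
    rw [Subgroup.mem_subgroupOf]
    exact Subgroup.map_mono himg (himgφ.symm ▸ (⟨a, ha, rfl⟩ : (a : G) ∈ c.img)))
  have hEc : Nat.card ((E.map φ).subgroupOf (Subgroup.centralizer ({d} : Set G))) = Nat.card E := by
    rw [Nat.card_congr (Subgroup.subgroupOfEquivOfLe hE').toEquiv, Subgroup.card_map_of_injective hφinj]
  have h1 := huniq c.A hA c.A_elementary c.card_A.ge
  have h2 := huniq ((E.map φ).subgroupOf (Subgroup.centralizer ({d} : Set G)))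
    (le_trans (Subgroup.comap_mono (Subgroup.map_mono hEQ)) hS)
    (CfsgLib.ThompsonJ.isElementaryAbelian_subgroupOf (CfsgLib.ThompsonJ.isElementaryAbelian_map hE _))
    (hEc.symm ▸ hcard)
  have h3 := congrArg (Subgroup.map (Subgroup.centralizer ({d} : Set G)).subtype) (h2.trans h1.symm)
  rw [Subgroup.map_subgroupOf_eq_of_le hE'] at h3
  exact Subgroup.map_injective hφinj (h3.trans himgφ.symm)

variable (hnwc : ∃ g : G, g * d * g⁻¹ ∈ Subgroup.centralizer ({d} : Set G) ∧ g * d * g⁻¹ ≠ d)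
include hnwc

/-- A 2-group over the plane permuting the conjugates there has no other large elementary abelian subgroup. -/
theorem eq_img_of_le {P E : Subgroup G} (hP : IsPGroup 2 P) (himg : c.img ≤ P)
    (hperm : ∀ x ∈ P, ∀ a, a ∈ c.img → IsConj d a → x * a * x⁻¹ ∈ c.img)
    (hEP : E ≤ P) (hE : Cfsg.IsElementaryAbelian 2 E) (hcard : 1024 ≤ Nat.card E) : E = c.img := by
  classical
  haveI : Fact (Nat.Prime 2) := ⟨Nat.prime_two⟩
  by_contra hne
  have hnofix : ∀ a, a ∈ c.img → IsConj d a → ¬ ∀ x ∈ E, Commute x a := fun a ha hc h =>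
    hne (c.eq_img_of_commute hz hP himg hEP hE hcard ha hc h)
  set O := {a : G | a ∈ c.img ∧ IsConj d a} with hO
  letI act : MulAction E O :=
    { smul := fun x a => ⟨(x : G) * a * (x : G)⁻¹, hperm x (hEP x.2) a a.2.1 a.2.2,
        a.2.2.trans (isConj_iff.2 ⟨x, rfl⟩)⟩
      one_smul := fun a => Subtype.ext (show ((1 : E) : G) * a * ((1 : E) : G)⁻¹ = a by simp)
      mul_smul := fun x y a => Subtype.ext (show ((x * y : E) : G) * a * ((x * y : E) : G)⁻¹ =
        (x : G) * ((y : G) * a * (y : G)⁻¹) * (x : G)⁻¹ by rw [Subgroup.coe_mul]; group) }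
  have hfix : ∀ (x : E) (a : O), x • a = a ↔ Commute (x : G) a := fun x a => by
    rw [Subtype.ext_iff]
    show (x : G) * a * (x : G)⁻¹ = a ↔ _
    rw [mul_inv_eq_iff_eq_mul]
    exact Iff.rfl
  have hOcard : Nat.card O = 22 := by rw [Nat.card_coe_set_eq]; exact c.ncard_orbit hz hnwc
  have hEp : IsPGroup 2 E := hP.to_le hEP
  -- some orbit has two elements
  obtain ⟨a, ha2⟩ : ∃ a : O, Nat.card (MulAction.orbit E a) = 2 := by
    by_contra hall
    push Not at hall
    haveI : Fintype (Quotient (MulAction.orbitRel E O)) := Fintype.ofFinite _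
    have hsum : Nat.card O = ∑ w : Quotient (MulAction.orbitRel E O), Nat.card (MulAction.orbit E w.out) := by
      rw [Nat.card_congr (MulAction.selfEquivSigmaOrbits E O), Nat.card_sigma]
    have h4 : 4 ∣ Nat.card O := by
      rw [hsum]
      refine Finset.dvd_sum fun w _ => ?_
      obtain ⟨k, hk⟩ := hEp.card_orbit w.out
      rcases k with _ | _ | k
      · exfalso
        refine hnofix w.out w.out.2.1 w.out.2.2 fun x hx => (hfix ⟨x, hx⟩ w.out).1 ?_
        have hsub : Subsingleton (MulAction.orbit E w.out) := (Nat.card_eq_one_iff_unique.1 hk).1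
        exact congrArg Subtype.val (hsub.elim ⟨_, MulAction.mem_orbit w.out (⟨x, hx⟩ : E)⟩
          ⟨_, MulAction.mem_orbit_self w.out⟩)
      · exact absurd hk (hall _)
      · exact ⟨2 ^ k, by rw [hk, pow_succ, pow_succ]; ring⟩
    rw [hOcard] at h4
    omega
  set E₁ := E ⊓ Subgroup.centralizer ({(a : G)} : Set G) with hE₁
  have hstab : (MulAction.stabilizer E a).map E.subtype = E₁ := by
    ext x
    simp only [Subgroup.mem_map, MulAction.mem_stabilizer_iff, hE₁, Subgroup.mem_inf,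
      Subgroup.mem_centralizer_singleton_iff]
    constructor
    · rintro ⟨y, hy, rfl⟩; exact ⟨y.2, (hfix y a).1 hy⟩
    · rintro ⟨h1, h2⟩; exact ⟨⟨x, h1⟩, (hfix ⟨x, h1⟩ a).2 h2, rfl⟩
  have hcard₁ : Nat.card E₁ * 2 = Nat.card E := by
    rw [← hstab, Subgroup.card_map_of_injective E.subtype_injective, ← (MulAction.stabilizer E a).card_mul_index,
      MulAction.index_stabilizer, ← Nat.card_coe_set_eq, ha2]
  have hE1e : Cfsg.IsElementaryAbelian 2 E := hE
  have hEcomm : ∀ x ∈ E, ∀ y ∈ E, Commute x y := fun x hx y hy =>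
    congrArg Subtype.val (hE.1.is_comm.comm (⟨x, hx⟩ : E) ⟨y, hy⟩)
  have hane : (a : G) ∉ E := fun h => hnofix a a.2.1 a.2.2 fun x hx => hEcomm x hx a h
  have ha_sq : (a : G) * a = 1 := by rw [← pow_two]; exact c.img_elementary.2 a a.2.1
  have ha1 : (a : G) ≠ 1 := fun h => hane (h ▸ one_mem _)
  set E₂ := Subgroup.zpowers (a : G) ⊔ E₁ with hE₂
  have hE₁comm : ∀ x ∈ E₁, Commute (a : G) x := fun x hx =>
    (Subgroup.mem_centralizer_singleton_iff.1 hx.2 : x * (a : G) = (a : G) * x).symm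
  have hgenlist : ∀ x ∈ (Subgroup.zpowers (a : G) : Set G) ∪ (E₁ : Set G),
      ∀ y ∈ (Subgroup.zpowers (a : G) : Set G) ∪ (E₁ : Set G), Commute x y := by
    rintro x (hx | hx) y (hy | hy)
    · obtain ⟨i, rfl⟩ := Subgroup.mem_zpowers_iff.1 hx
      obtain ⟨j, rfl⟩ := Subgroup.mem_zpowers_iff.1 hy
      exact (Commute.refl _).zpow_zpow i j
    · obtain ⟨i, rfl⟩ := Subgroup.mem_zpowers_iff.1 hx
      exact (hE₁comm y hy).zpow_left i
    · obtain ⟨j, rfl⟩ := Subgroup.mem_zpowers_iff.1 hy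
      exact ((hE₁comm x hx).zpow_left j).symm
    · exact hEcomm x hx.1 y hy.1
  have hE₂comm : IsMulCommutative E₂ := by
    rw [hE₂, Subgroup.sup_eq_closure]
    exact Subgroup.isMulCommutative_closure hgenlist
  have hE₂elem : Cfsg.IsElementaryAbelian 2 E₂ := by
    refine ⟨hE₂comm, fun x hx => ?_⟩
    have hle : Subgroup.zpowers (a : G) ≤ Subgroup.normalizer (E₁ : Set G) := by
      rw [Subgroup.zpowers_le]
      exact mem_normalizer_of_forall fun y hy => by rw [(hE₁comm y hy).eq, mul_inv_cancel_right]; exact hy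
    rw [hE₂, ← SetLike.mem_coe, Subgroup.coe_mul_of_left_le_normalizer_right _ _ hle, Set.mem_mul] at hx
    obtain ⟨u, hu, v, hv, rfl⟩ := hx
    obtain ⟨i, rfl⟩ := Subgroup.mem_zpowers_iff.1 hu
    rw [((hE₁comm v hv).zpow_left i).mul_pow, hE.2 v hv.1, mul_one, ← zpow_natCast, ← zpow_mul, mul_comm,
      zpow_mul, zpow_natCast, pow_two, ha_sq, one_zpow]
  have hE₂card : Nat.card E₂ = Nat.card E := by
    have hle : Subgroup.zpowers (a : G) ≤ Subgroup.normalizer (E₁ : Set G) := by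
      rw [Subgroup.zpowers_le]
      exact mem_normalizer_of_forall fun y hy => by rw [(hE₁comm y hy).eq, mul_inv_cancel_right]; exact hy
    have h := CfsgLib.NormalPComplement.card_sup_mul_card_inf hle
    have hinf : Subgroup.zpowers (a : G) ⊓ E₁ = ⊥ := by
      refine (Subgroup.eq_bot_iff_forall _).2 fun x hx => ?_
      obtain ⟨i, hi⟩ := Subgroup.mem_zpowers_iff.1 hx.1
      rcases Int.even_or_odd i with ⟨m, rfl⟩ | ⟨m, rfl⟩
      · rw [← hi, zpow_add, ← (Commute.refl (a : G)).mul_zpow, ha_sq, one_zpow]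
      · exfalso
        rw [zpow_add_one, two_mul, zpow_add, ← (Commute.refl (a : G)).mul_zpow, ha_sq, one_zpow, one_mul] at hi
        exact hane (hi ▸ hx.2.1)
    rw [hinf, Subgroup.card_bot, mul_one, Nat.card_zpowers,
      orderOf_eq_prime (by rw [pow_two, ha_sq]) ha1, mul_comm 2, hcard₁] at h
    exact h
  have hE₂P : E₂ ≤ P := sup_le (Subgroup.zpowers_le.2 (himg a.2.1)) (inf_le_left.trans hEP)
  have hE₂img : E₂ = c.img := c.eq_img_of_commute hz hP himg hE₂P hE₂elem (hE₂card.symm ▸ hcard) a.2.1 a.2.2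
    fun x hx => congrArg Subtype.val
      (hE₂comm.is_comm.comm (⟨x, hx⟩ : E₂) ⟨a, Subgroup.mem_sup_left (Subgroup.mem_zpowers _)⟩)
  -- the element moving it
  obtain ⟨x, hxE, hxa⟩ : ∃ x ∈ E, ¬ Commute x (a : G) := by
    by_contra h
    push Not at h
    exact hnofix a a.2.1 a.2.2 h
  set a' : O := (⟨x, hxE⟩ : E) • a with ha'
  have ha'v : (a' : G) = x * a * x⁻¹ := rfl
  -- every conjugate in the plane lies in the other coset
  have hcoset : ∀ f : O, x * (f : G) * x⁻¹ * f = x * (a : G) * x⁻¹ * a := by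
    intro f
    have hf : (f : G) ∈ E₂ := hE₂img.symm ▸ f.2.1
    have hle : Subgroup.zpowers (a : G) ≤ Subgroup.normalizer (E₁ : Set G) := by
      rw [Subgroup.zpowers_le]
      exact mem_normalizer_of_forall fun y hy => by rw [(hE₁comm y hy).eq, mul_inv_cancel_right]; exact hy
    rw [hE₂, ← SetLike.mem_coe, Subgroup.coe_mul_of_left_le_normalizer_right _ _ hle, Set.mem_mul] at hf
    obtain ⟨u, hu, v, hv, hf⟩ := hf
    obtain ⟨i, rfl⟩ := Subgroup.mem_zpowers_iff.1 hu
    rcases Int.even_or_odd i with ⟨m, rfl⟩ | ⟨m, rfl⟩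
    · exfalso
      rw [zpow_add, ← (Commute.refl (a : G)).mul_zpow, ha_sq, one_zpow, one_mul] at hf
      exact hnofix f f.2.1 f.2.2 fun y hy => hf ▸ hEcomm y hy v hv.1
    · rw [zpow_add_one, two_mul, zpow_add, ← (Commute.refl (a : G)).mul_zpow, ha_sq, one_zpow, one_mul] at hf
      have hvv : v * v = 1 := by rw [← pow_two]; exact hE.2 v hv.1
      have hxv : x * v * x⁻¹ = v := by rw [(hEcomm x hxE v hv.1).eq, mul_inv_cancel_right]
      rw [← hf]
      calc x * ((a : G) * v) * x⁻¹ * ((a : G) * v) = (x * a * x⁻¹) * ((x * v * x⁻¹) * a) * v := by group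
        _ = (x * a * x⁻¹) * a * (v * v) := by rw [hxv, ← (hE₁comm v hv).eq]; group
        _ = x * a * x⁻¹ * a := by rw [hvv, mul_one]
  obtain ⟨f, hfa, hfa'⟩ : ∃ f : O, f ≠ a ∧ f ≠ a' := by
    by_contra h
    push Not at h
    have hle : Nat.card O ≤ 2 := by
      refine le_of_le_of_eq (Nat.card_le_card_of_injective (fun f : O => decide (f = a)) ?_) (by simp)
      intro u v e
      by_cases hu : u = a <;> by_cases hv : v = a
      · exact hu.trans hv.symm
      · simp [hu, hv] at e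
      · simp [hu, hv] at e
      · exact (h u hu).trans (h v hv).symm
    omega
  set f' : O := (⟨x, hxE⟩ : E) • f with hf'
  have hx2 : x * x = 1 := by rw [← pow_two]; exact hE.2 x hxE
  have hxinv : x⁻¹ = x := inv_eq_of_mul_eq_one_left hx2
  have ha'a : (a' : G) ≠ a := fun h => hxa (mul_inv_eq_iff_eq_mul.1 (ha'v ▸ h))
  have haf' : (a : G) ≠ f' := fun h => hfa' (Subtype.ext (by
    rw [ha'v, h, show (f' : G) = x * f * x⁻¹ from rfl, hxinv]
    calc (f : G) = (x * x) * f * (x * x) := by rw [hx2, one_mul, mul_one]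
      _ = x * (x * f * x) * x := by group))
  have hf'f : (f' : G) ≠ f := fun h => by
    have h1 := hcoset f
    rw [show x * (f : G) * x⁻¹ = (f : G) from h,
      show (f : G) * f = 1 by rw [← pow_two]; exact c.img_elementary.2 f f.2.1] at h1
    exact ha'a (by rw [ha'v, eq_inv_of_mul_eq_one_left h1.symm, inv_eq_of_mul_eq_one_left ha_sq])
  refine c.pair_ne hz hnwc a.2.1 a'.2.1 f.2.1 f'.2.1 a.2.2 a'.2.2 f.2.2 f'.2.2 (Ne.symm ha'a) (Ne.symm hf'f)
    (fun h => hfa (Subtype.ext h.symm)) haf' ?_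
  have hcm : ∀ u v : O, (u : G) * v = v * u := fun u v =>
    congrArg Subtype.val (c.img_elementary.1.is_comm.comm (⟨u, u.2.1⟩ : c.img) ⟨v, v.2.1⟩)
  rw [hcm a a', hcm f f']
  exact (hcoset f).symm

end Cover

/-- The members in a Sylow 2-subgroup generate its Thompson subgroup. -/
theorem closure_eq_thompson {D : Set G} (hD : Cfsg.IsThreeTranspositionGroup D)
    (hprim : Cfsg.IsPrimitiveUnderConj D) (h22 : Cfsg.IsOfTypeM22 G D) (hd : orderOf d = 2)
    (hq : Cfsg.IsQuasisimple ↥(Subgroup.centralizer ({d} : Set G)))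
    [((Subgroup.zpowers d).subgroupOf (Subgroup.centralizer ({d} : Set G))).Normal]
    (hK : Fintype.card F = 4)
    (e : ↥(Subgroup.centralizer ({d} : Set G)) ⧸ (Subgroup.zpowers d).subgroupOf (Subgroup.centralizer ({d} : Set G))
      ≃* Cfsg.PSU 6 F 2)
    (hnwc : ∃ g : G, g * d * g⁻¹ ∈ Subgroup.centralizer ({d} : Set G) ∧ g * d * g⁻¹ ≠ d) (T : Sylow 2 G) :
    Subgroup.closure {x : G | x ∈ D ∧ x ∈ (T : Subgroup G)} = Cfsg.thompsonSubgroupOf 2 (T : Subgroup G) := by
  classical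
  haveI : Fact (Nat.Prime 2) := ⟨Nat.prime_two⟩
  obtain ⟨c, hz⟩ := exists_cover d hd hq hK e
  have hdD : d ∈ D := CfsgLib.Fischer.TypeTwentyTwo.mem_of_quasisimple hD hprim h22 hd hq hK e
  set O := {a : G | a ∈ c.img ∧ IsConj d a} with hO
  have hOD : O ⊆ D := fun a ha => by
    obtain ⟨g, rfl⟩ := isConj_iff.1 ha.2
    exact hD.2.1 g d hdD
  have hpimg : IsPGroup 2 c.img := fun x => ⟨1, Subtype.ext (by
    rw [pow_one, Subgroup.coe_pow]; exact c.img_elementary.2 x x.2)⟩
  obtain ⟨T₁, hT₁⟩ := hpimg.exists_le_sylow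
  obtain ⟨g, hg⟩ := MulAction.exists_smul_eq G T T₁
  set φ := (MulAut.conj g).toMonoidHom with hφ
  have hφinj : Function.Injective φ := (MulAut.conj g).injective
  set P := (T : Subgroup G).map φ with hPdef
  have hPT : P = (T₁ : Subgroup G) := by rw [← hg]; rfl
  have hP : IsPGroup 2 P := T.2.map φ
  have himg : c.img ≤ P := hPT ▸ hT₁
  set M := {x : G | x ∈ D ∧ x ∈ P} with hMdef
  have hOM : O ⊆ M := fun a ha => ⟨hOD ha, himg ha.1⟩
  have hMO : M = O := by
    refine (Set.eq_of_subset_of_ncard_le hOM ?_ (Set.toFinite M)).symm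
    rw [c.ncard_orbit hz hnwc, ← CfsgLib.Fischer.TypeTwentyTwo.commutingWidth_eq hD hprim h22]
    exact CfsgLib.Fischer.le_commutingWidth (fun a ha => ha.1)
      fun a ha b hb => commute_of_isPGroup hD.1 hP ha.1 hb.1 ha.2 hb.2
  have hperm : ∀ x ∈ P, ∀ a, a ∈ c.img → IsConj d a → x * a * x⁻¹ ∈ c.img := fun x hx a ha hc => by
    have h1 : x * a * x⁻¹ ∈ M :=
      ⟨hD.2.1 x a (hOD ⟨ha, hc⟩), mul_mem (mul_mem hx (himg ha)) (inv_mem hx)⟩
    rw [hMO] at h1
    exact h1.1
  set B := c.img.comap φ with hB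
  have hBmap : B.map φ = c.img := Subgroup.map_comap_eq_self_of_surjective (MulAut.conj g).surjective _
  have hTP : ∀ x, x ∈ (T : Subgroup G) ↔ φ x ∈ P := fun x =>
    ⟨fun h => ⟨x, h, rfl⟩, fun ⟨y, hy, e'⟩ => hφinj e' ▸ hy⟩
  have hL : Subgroup.closure {x : G | x ∈ D ∧ x ∈ (T : Subgroup G)} = B := by
    refine Subgroup.map_injective hφinj ?_
    rw [hBmap, MonoidHom.map_closure, ← c.closure_orbit hz hnwc, ← hO, ← hMO]
    congr 1
    ext y
    constructor
    · rintro ⟨x, ⟨hxD, hxT⟩, rfl⟩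
      exact ⟨hD.2.1 g x hxD, (hTP x).1 hxT⟩
    · rintro ⟨hyD, hyP⟩
      obtain ⟨x, hxT, rfl⟩ := hyP
      refine ⟨x, ⟨?_, hxT⟩, rfl⟩
      have h := hD.2.1 g⁻¹ _ hyD
      simpa [hφ, MulAut.conj_apply, mul_assoc] using h
  rw [hL]
  have hBe : Cfsg.IsElementaryAbelian 2 B :=
    (CfsgLib.ThompsonJ.isElementaryAbelian_map_iff hφinj).1 (hBmap.symm ▸ c.img_elementary)
  have hBT : B ≤ (T : Subgroup G) := fun x hx => (hTP x).2 (himg hx)
  have hBc : Nat.card B = 1024 := by rw [← Subgroup.card_map_of_injective hφinj, hBmap, c.img_card]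
  have huniq : ∀ E : Subgroup G, E ≤ (T : Subgroup G) → Cfsg.IsElementaryAbelian 2 E → 1024 ≤ Nat.card E → E = B := by
    intro E hET hE hcard
    refine Subgroup.map_injective hφinj ?_
    rw [hBmap]
    exact c.eq_img_of_le hz hnwc hP himg hperm (Subgroup.map_mono hET)
      (CfsgLib.ThompsonJ.isElementaryAbelian_map hE _) (by rwa [Subgroup.card_map_of_injective hφinj])
  refine le_antisymm (CfsgLib.ThompsonJ.le_thompsonSubgroupOf ⟨hBT, hBe, fun E hET hE => ?_⟩)
    (CfsgLib.ThompsonJ.thompsonSubgroupOf_le_iff.2 fun E hE =>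
      (huniq E hE.le hE.elem (hBc ▸ hE.card_le B hBT hBe)).le)
  rcases le_total (Nat.card E) 1024 with h | h
  · exact hBc ▸ h
  · rw [huniq E hET hE h]

end CfsgLib.Fischer.U6Plane
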